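import Cfsg.Agent.H77.SgDefs2

/-!
Exceptional characters do not occur in a small character vanishing off the kernel of `τ`.
-/

set_option autoImplicit false

namespace Cfsg.Agent.H11.SgX

open Cfsg Cfsg.Agent.H11 Cfsg.Agent.H12 Cfsg.Agent.H12.UC
open scoped Classical ComplexConjugate

universe w

variable {G : Type w} [Group G] [Fintype G] {U : UC G}

/-- Two good characters with different multiplicities in `χ_C` induce `χ - ξ`. -/
theorem ind_sub {χ : G → ℂ} (hχ : IsIrrCharacter G χ) {η η' : U.C → ℂ} (hη : U.Good η)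
    (hη' : U.Good η') (hk : ∀ c, U.τ c = 1 → η c = η' c)
    (hlt : mult (fun c : U.C => χ c) η' < mult (fun c : U.C => χ c) η) :
    mult (fun c : U.C => χ c) η = mult (fun c : U.C => χ c) η' + 1 ∧
      ∃ ξ, IsIrrCharacter G ξ ∧ χ ≠ ξ ∧ indFun U.C (η - η') = χ - ξ := by
  have hn : ¬ U.Rel η η' := fun h =>
    hlt.ne' (mult_eq_of_rel (isClassFunction_of_irr hχ) h)
  obtain ⟨α, β, hα, hβ, hne, h⟩ := exists_sub_of_classInner_self_eq_two
    (H14.IsGeneralizedCharacter.indFun U.C (isGen_sub (isGen_of_irr hη.1) (isGen_of_irr hη'.1)))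
    (by
      rw [classInner_ind_ind (fun c hc => by simp [hk c hc]), s_sub_sub, s_of_rel hη (Rel.refl _),
        s_of_rel hη' (Rel.refl _), s_of_not_rel hη.1 hη'.1 hn,
        s_of_not_rel hη'.1 hη.1 fun h => hn h.symm]
      norm_num)
    (by rw [H14.indFun_one, Pi.sub_apply, hk 1 (map_one _), sub_self, mul_zero])
  have h2 := classInner_ind_sub (isCharacter_of_irr hχ) (isCharacter_of_irr hη.1)
    (isCharacter_of_irr hη'.1)
  rw [h, classInner_sub_left, classInner_irr hα hχ, classInner_irr hβ hχ] at h2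
  by_cases hαψ : α = χ
  · subst hαψ
    rw [if_pos rfl, if_neg hne.symm] at h2
    refine ⟨?_, β, hβ, hne, h⟩
    have : ((mult (fun c : U.C => α c) η : ℕ) : ℂ) =
        ((mult (fun c : U.C => α c) η' + 1 : ℕ) : ℂ) := by
      push_cast
      linear_combination -h2
    exact_mod_cast this
  · exfalso
    rw [if_neg hαψ] at h2
    split_ifs at h2
    · have : ((mult (fun c : U.C => χ c) η + 1 : ℕ) : ℂ) =
          ((mult (fun c : U.C => χ c) η' : ℕ) : ℂ) := by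
        push_cast
        linear_combination -h2
      have : mult (fun c : U.C => χ c) η + 1 = mult (fun c : U.C => χ c) η' := by
        exact_mod_cast this
      omega
    · have : ((mult (fun c : U.C => χ c) η : ℕ) : ℂ) =
          ((mult (fun c : U.C => χ c) η' : ℕ) : ℂ) := by
        linear_combination -h2
      have : mult (fun c : U.C => χ c) η = mult (fun c : U.C => χ c) η' := by
        exact_mod_cast this
      omega

/-- The partner `ξ` has the degree of `χ` and occurs in `π`. -/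
theorem partner {π χ ξ : G → ℂ} (hπ : IsCharacter G π) (h0 : ∀ c : U.C, U.τ c ≠ 1 → π c = 0)
    (hχ : IsIrrCharacter G χ) (hξ : IsIrrCharacter G ξ) (hpc : classInner π χ ≠ 0)
    {φ : U.C → ℂ} (hφ : ∀ c, U.τ c = 1 → φ c = 0) (h : indFun U.C φ = χ - ξ) :
    charDegree ξ = charDegree χ ∧ mult π ξ ≠ 0 := by
  constructor
  · have h1 := congrFun h 1
    rw [H14.indFun_one, hφ 1 (map_one _), mul_zero, Pi.sub_apply] at h1
    have : (charDegree ξ : ℂ) = charDegree χ := by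
      rw [H24.deg_cast (isCharacter_of_irr hξ), H24.deg_cast (isCharacter_of_irr hχ)]
      linear_combination h1
    exact_mod_cast this
  · have h1 : classInner (indFun U.C φ) π = 0 := by
      rw [H14.classInner_indFun_left _ _ (isClassFunction_of_isCharacter hπ), classInner_def,
        Finset.sum_eq_zero, mul_zero]
      intro c _
      by_cases hc : U.τ c = 1
      · simp [hφ c hc]
      · simp [h0 c hc]
    rw [h, classInner_sub_left, classInner_comm_of_isCharacter (isCharacter_of_irr hχ) hπ,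
      classInner_comm_of_isCharacter (isCharacter_of_irr hξ) hπ] at h1
    rw [mult_ne_zero_iff hπ (isCharacter_of_irr hξ)]
    intro h2
    exact hpc (by linear_combination h1 + h2)

/-- Counting the partners. -/
theorem count {ι : Type*} {π χ : G → ℂ} (hπ : IsCharacter G π) (hχ : IsIrrCharacter G χ)
    (hpc : classInner π χ ≠ 0) (f : ι → U.C → ℂ) (hf : Function.Injective f) (S : Finset ι)
    (hS : ∀ μ ∈ S, U.Good (f μ)) (ξ : ι → G → ℂ)
    (hξ : ∀ μ ∈ S, IsIrrCharacter G (ξ μ) ∧ χ ≠ ξ μ ∧ charDegree (ξ μ) = charDegree χ ∧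
      mult π (ξ μ) ≠ 0)
    (hr : ∀ μ ∈ S, ∀ μ' ∈ S, ξ μ' = ξ μ → U.Rel (f μ') (f μ)) :
    charDegree χ * (S.card + U.e) ≤ charDegree π * U.e := by
  have h2 := Finset.card_le_mul_card_image (f := ξ) S U.e fun b hb => by
    obtain ⟨μ, hμ, rfl⟩ := Finset.mem_image.1 hb
    refine (hS μ hμ).card_le_e _ f hf.injOn fun μ' hμ' => ?_
    obtain ⟨hμ', h3⟩ := Finset.mem_filter.1 hμ'
    exact hr μ hμ μ' hμ' h3
  have hn : χ ∉ S.image ξ := fun h => by
    obtain ⟨μ, hμ, h⟩ := Finset.mem_image.1 h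
    exact (hξ μ hμ).2.1 h.symm
  have h3 := sum_mult_mul_deg_le hπ (insert χ (S.image ξ)) (fun η hη => by
    rcases Finset.mem_insert.1 hη with rfl | hη
    · exact hχ
    · obtain ⟨μ, hμ, rfl⟩ := Finset.mem_image.1 hη
      exact (hξ μ hμ).1)
  have h4 : (insert χ (S.image ξ)).card * charDegree χ ≤
      ∑ η ∈ insert χ (S.image ξ), mult π η * charDegree η := by
    rw [← smul_eq_mul]
    refine Finset.card_nsmul_le_sum _ _ _ fun η hη => ?_
    rcases Finset.mem_insert.1 hη with rfl | hη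
    · exact Nat.le_mul_of_pos_left _ (Nat.pos_of_ne_zero
        ((mult_ne_zero_iff hπ (isCharacter_of_irr hχ)).2 hpc))
    · obtain ⟨μ, hμ, rfl⟩ := Finset.mem_image.1 hη
      rw [(hξ μ hμ).2.2.1]
      exact Nat.le_mul_of_pos_left _ (Nat.pos_of_ne_zero (hξ μ hμ).2.2.2)
  rw [Finset.card_insert_of_notMem hn] at h4
  have h5 := Nat.mul_le_mul_right U.e (h4.trans h3)
  have h6 := Nat.mul_le_mul_left (charDegree χ) h2
  nlinarith

theorem fin_hom : Finite (U.P →* ℂˣ) :=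
  Nat.finite_of_card_ne_zero (by rw [card_hom]; exact Nat.card_pos.ne')

theorem irr_fam {η₀ : U.C → ℂ} (h : IsIrrCharacter U.C η₀) (μ : U.P →* ℂˣ) :
    IsIrrCharacter U.C (η₀ * U.lin μ) :=
  isIrrCharacter_mul_linear h (isCharacter_of_irr (isIrr_lin μ)) (lin_one μ)

/-- The multiplicity in `χ_C` is constant on the good members of a family. -/
theorem claim {π χ : G → ℂ} (hπ : IsCharacter G π) (h0 : ∀ c : U.C, U.τ c ≠ 1 → π c = 0)
    (hχ : IsIrrCharacter G χ) (hpc : classInner π χ ≠ 0)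
    (hd : charDegree π * U.e < charDegree χ * (Nat.card U.P - 1))
    {η₀ : U.C → ℂ} (hη₀ : IsIrrCharacter U.C η₀) {μ₀ μ₁ : U.P →* ℂˣ}
    (g₀ : U.Good (η₀ * U.lin μ₀)) (g₁ : U.Good (η₀ * U.lin μ₁)) :
    ¬ mult (fun c : U.C => χ c) (η₀ * U.lin μ₀) < mult (fun c : U.C => χ c) (η₀ * U.lin μ₁) := by
  intro hlt
  have hψc := isClassFunction_of_irr hχ
  set a : (U.C → ℂ) → ℕ := mult (fun c : U.C => χ c) with ha
  have := fin_hom (U := U)
  have := Fintype.ofFinite (U.P →* ℂˣ)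
  have hcard : Fintype.card (U.P →* ℂˣ) = Nat.card U.P := by
    rw [← Nat.card_eq_fintype_card, card_hom]
  set f : (U.P →* ℂˣ) → U.C → ℂ := fun μ => η₀ * U.lin μ with hf
  have hfirr : ∀ μ, IsIrrCharacter U.C (f μ) := irr_fam hη₀
  have hfk : ∀ μ ν c, U.τ c = 1 → f μ c = f ν c := fun μ ν c hc => by
    simp only [hf, Pi.mul_apply, lin_of_ker μ hc, lin_of_ker ν hc]
  have hfk' : ∀ μ ν c, U.τ c = 1 → (f μ - f ν) c = 0 := fun μ ν c hc => by
    rw [Pi.sub_apply, hfk μ ν c hc, sub_self]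
  have hfinj : Function.Injective f := fun μ μ' h => eq_of_lin_eq fun x hx =>
    mul_left_cancel₀ (apply_ne_zero_of_mem hη₀ hx) (congrFun h x)
  set M := Finset.univ.filter fun μ => U.Good (f μ) with hM
  have hMc : Nat.card U.P ≤ M.card + 1 := by
    rw [← hcard, ← Finset.card_univ,
      ← Finset.card_filter_add_card_filter_not (s := Finset.univ) fun μ => U.Good (f μ)]
    refine Nat.add_le_add_left (Finset.card_le_one.2 fun μ hμ μ' hμ' => ?_) _
    have h2 : ∀ μ, ¬ U.Good (f μ) → ∀ x : U.C, (x : G) ∈ U.P → η₀ x * U.lin μ x = η₀ 1 :=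
      fun μ hμ x hx => by
        by_contra h
        exact hμ ⟨hfirr μ, x, hx, by simpa [hf, lin_one] using h⟩
    exact eq_of_lin_eq fun x hx => mul_left_cancel₀ (apply_ne_zero_of_mem hη₀ hx)
      ((h2 μ (Finset.mem_filter.1 hμ).2 x hx).trans (h2 μ' (Finset.mem_filter.1 hμ').2 x hx).symm)
  change a (f μ₀) < a (f μ₁) at hlt
  change U.Good (f μ₀) at g₀
  change U.Good (f μ₁) at g₁
  have key : ∀ μ ν, U.Good (f μ) → U.Good (f ν) → a (f ν) < a (f μ) →
      a (f μ) = a (f ν) + 1 ∧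
        ∃ ξ, IsIrrCharacter G ξ ∧ χ ≠ ξ ∧ indFun U.C (f μ - f ν) = χ - ξ :=
    fun μ ν hμ hν h => ind_sub hχ hμ hν (hfk μ ν) h
  have h01 := (key μ₁ μ₀ g₁ g₀ hlt).1
  set Z := M.filter fun μ => a (f μ) = a (f μ₀) with hZ
  set W := M.filter fun μ => ¬ a (f μ) = a (f μ₀) with hW
  have hZW : Z.card + W.card = M.card := Finset.card_filter_add_card_filter_not _
  have hZg : ∀ μ ∈ Z, U.Good (f μ) ∧ a (f μ) = a (f μ₀) := fun μ hμ =>
    ⟨(Finset.mem_filter.1 (Finset.mem_filter.1 hμ).1).2, (Finset.mem_filter.1 hμ).2⟩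
  have hWg : ∀ μ ∈ W, U.Good (f μ) ∧ a (f μ) = a (f μ₀) + 1 := fun μ hμ => by
    have g := (Finset.mem_filter.1 (Finset.mem_filter.1 hμ).1).2
    have hne := (Finset.mem_filter.1 hμ).2
    refine ⟨g, ?_⟩
    rcases lt_or_gt_of_ne hne with h | h
    · have := (key μ₁ μ g₁ g (by omega)).1
      omega
    · exact (key μ μ₀ g g₀ h).1
  have hnr : ∀ {η η'}, a η ≠ a η' → ¬ U.Rel η η' := fun h hr => h (mult_eq_of_rel hψc hr)
  have hsum : Nat.card U.P - 1 ≤ Z.card + W.card := by omega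
  by_cases hA : ∀ μ ∈ W, U.Rel (f μ) (f μ₁)
  · have hWe : W.card ≤ U.e := g₁.card_le_e W f hfinj.injOn hA
    have hξ : ∀ μ, ∃ ξ, μ ∈ Z → IsIrrCharacter G ξ ∧ χ ≠ ξ ∧ indFun U.C (f μ₁ - f μ) = χ - ξ :=
      fun μ => by
        by_cases hμ : μ ∈ Z
        · obtain ⟨-, ξ, h⟩ := key μ₁ μ g₁ (hZg μ hμ).1 (by rw [(hZg μ hμ).2]; exact hlt)
          exact ⟨ξ, fun _ => h⟩
        · exact ⟨0, fun h => absurd h hμ⟩
    choose ξ hξ using hξ
    have hc := count hπ hχ hpc f hfinj Z (fun μ hμ => (hZg μ hμ).1) ξ (fun μ hμ =>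
      ⟨(hξ μ hμ).1, (hξ μ hμ).2.1,
        partner hπ h0 hχ (hξ μ hμ).1 hpc (hfk' μ₁ μ) (hξ μ hμ).2.2⟩) fun μ hμ μ' hμ' h3 => by
      by_contra hr
      obtain ⟨h5, h6, h7⟩ := hξ μ hμ
      obtain ⟨h5', h6', h7'⟩ := hξ μ' hμ'
      have h8 := classInner_sub_sub_irr hχ h5' h5 h6' h6
      have n1 : a (f μ₁) ≠ a (f μ) := by rw [(hZg μ hμ).2]; omega
      have n2 : a (f μ') ≠ a (f μ₁) := by rw [(hZg μ' hμ').2]; omega
      rw [← h7, ← h7', classInner_ind_ind (hfk' μ₁ μ'), s_sub_sub,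
        s_of_rel g₁ (Rel.refl _), s_of_not_rel g₁.1 (hfirr μ) (hnr n1),
        s_of_not_rel (hfirr μ') g₁.1 (hnr n2),
        s_of_not_rel (hfirr μ') (hfirr μ) hr, if_pos h3] at h8
      norm_num at h8
    have := Nat.mul_le_mul_left (charDegree χ) (hsum.trans (Nat.add_le_add_left hWe _))
    omega
  by_cases hB : ∀ μ ∈ Z, U.Rel (f μ) (f μ₀)
  · have hZe : Z.card ≤ U.e := g₀.card_le_e Z f hfinj.injOn hB
    have hξ : ∀ μ, ∃ ξ, μ ∈ W → IsIrrCharacter G ξ ∧ χ ≠ ξ ∧ indFun U.C (f μ - f μ₀) = χ - ξ :=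
      fun μ => by
        by_cases hμ : μ ∈ W
        · obtain ⟨-, ξ, h⟩ := key μ μ₀ (hWg μ hμ).1 g₀ (by rw [(hWg μ hμ).2]; omega)
          exact ⟨ξ, fun _ => h⟩
        · exact ⟨0, fun h => absurd h hμ⟩
    choose ξ hξ using hξ
    have hc := count hπ hχ hpc f hfinj W (fun μ hμ => (hWg μ hμ).1) ξ (fun μ hμ =>
      ⟨(hξ μ hμ).1, (hξ μ hμ).2.1,
        partner hπ h0 hχ (hξ μ hμ).1 hpc (hfk' μ μ₀) (hξ μ hμ).2.2⟩) fun μ hμ μ' hμ' h3 => by
      by_contra hr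
      obtain ⟨h5, h6, h7⟩ := hξ μ hμ
      obtain ⟨h5', h6', h7'⟩ := hξ μ' hμ'
      have h8 := classInner_sub_sub_irr hχ h5' h5 h6' h6
      have n1 : a (f μ₀) ≠ a (f μ) := by rw [(hWg μ hμ).2]; omega
      have n2 : a (f μ') ≠ a (f μ₀) := by rw [(hWg μ' hμ').2]; omega
      rw [← h7, ← h7', classInner_ind_ind (hfk' μ' μ₀), s_sub_sub,
        s_of_rel g₀ (Rel.refl _), s_of_not_rel g₀.1 (hfirr μ) (hnr n1),
        s_of_not_rel (hfirr μ') g₀.1 (hnr n2),
        s_of_not_rel (hfirr μ') (hfirr μ) hr, if_pos h3] at h8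
      norm_num at h8
    have := Nat.mul_le_mul_left (charDegree χ)
      (hsum.trans ((Nat.add_le_add_right hZe _).trans_eq (add_comm _ _)))
    omega
  push Not at hA hB
  obtain ⟨ν₁, hν₁, r₁⟩ := hA
  obtain ⟨ν₀, hν₀, r₀⟩ := hB
  obtain ⟨-, ξ, h5, h6, h7⟩ := key μ₁ μ₀ g₁ g₀ hlt
  obtain ⟨-, ξ', h5', h6', h7'⟩ := key ν₁ ν₀ (hWg ν₁ hν₁).1 (hZg ν₀ hν₀).1
    (by rw [(hWg ν₁ hν₁).2, (hZg ν₀ hν₀).2]; omega)
  have h8 := classInner_sub_sub_irr hχ h5' h5 h6' h6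
  have n1 : a (f ν₁) ≠ a (f μ₀) := by rw [(hWg ν₁ hν₁).2]; omega
  have n2 : a (f ν₀) ≠ a (f μ₁) := by rw [(hZg ν₀ hν₀).2]; omega
  rw [← h7, ← h7', classInner_ind_ind (hfk' ν₁ ν₀), s_sub_sub,
    s_of_not_rel (hfirr ν₁) (hfirr μ₁) r₁, s_of_not_rel (hfirr ν₁) (hfirr μ₀) (hnr n1),
    s_of_not_rel (hfirr ν₀) (hfirr μ₁) (hnr n2),
    s_of_not_rel (hfirr ν₀) (hfirr μ₀) r₀] at h8
  split_ifs at h8 <;> norm_num at h8

theorem tau_ne {x : G} (hx : x ∈ U.P) (h1 : x ≠ 1) : U.τ ⟨x, U.hPC hx⟩ ≠ 1 := fun h => by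
  let t : U.P →* U.P := U.τ.comp (Subgroup.inclusion U.hPC)
  have hs : Function.Surjective t := fun y => U.τsurj y
  have hi := Finite.injective_iff_surjective.2 hs
  exact h1 (congrArg Subtype.val ((injective_iff_map_eq_one t).1 hi ⟨x, hx⟩ h))

theorem sum_lin [Fintype (U.P →* ℂˣ)] {c : U.C} (hc : U.τ c ≠ 1) :
    ∑ μ : U.P →* ℂˣ, U.lin μ c = 0 := by
  let : CommGroup U.P :=
    { (inferInstance : Group U.P) with
      mul_comm := fun a b => Subtype.ext (U.cen a (U.hPC a.2) b b.2) }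
  have : NeZero ((Monoid.exponent U.P : ℕ) : ℂ) := ⟨by exact_mod_cast Monoid.exponent_ne_zero_of_finite⟩
  obtain ⟨φ, hφ⟩ := CommGroup.exists_apply_ne_one_of_hasEnoughRootsOfUnity U.P ℂ hc
  have h := Fintype.sum_bijective (φ * ·) (Group.mulLeft_bijective φ)
    (fun μ : U.P →* ℂˣ => (φ (U.τ c) : ℂ) * U.lin μ c) (fun μ => U.lin μ c)
    (fun μ => by simp [lin])
  rw [← Finset.mul_sum] at h
  have h2 : ((φ (U.τ c) : ℂ) - 1) * ∑ μ : U.P →* ℂˣ, U.lin μ c = 0 := by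
    linear_combination h
  refine (mul_eq_zero.1 h2).resolve_left fun h3 => hφ (Units.ext ?_)
  rw [Units.val_one]
  linear_combination h3

theorem exc : H77.Sg.Exc0.{w} := by
  intro G _ _ U π χ hπ h0 hdeg hχ hpc x hx y hy hx1 hy1
  have hχ' := isCharacter_of_irr hχ
  by_cases hP : U.P ≤ charKer χ
  · rw [(mem_charKer_iff hχ').1 (hP hx), (mem_charKer_iff hχ').1 (hP hy)]
  have hd := hdeg χ hχ hP
  have hC := isCharacter_restrict hχ' U.C
  set a : (U.C → ℂ) → ℕ := mult (fun c : U.C => χ c) with ha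
  have := fin_hom (U := U)
  have := Fintype.ofFinite (U.P →* ℂˣ)
  have := Fintype.ofFinite (IrrCharacter U.C)
  have hc : ∀ η : IrrCharacter U.C, ∃ k : ℕ, ∀ μ, U.Good (η.1 * U.lin μ) →
      a (η.1 * U.lin μ) = k := fun η => by
    by_cases h : ∃ μ, U.Good (η.1 * U.lin μ)
    · obtain ⟨μ₀, g₀⟩ := h
      exact ⟨_, fun μ g => le_antisymm (not_lt.1 (claim hπ h0 hχ hpc hd η.2 g₀ g))
        (not_lt.1 (claim hπ h0 hχ hpc hd η.2 g g₀))⟩
    · exact ⟨0, fun μ g => absurd ⟨μ, g⟩ h⟩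
  choose k hk using hc
  have hexp : ∀ c : U.C, χ c = ∑ η : IrrCharacter U.C, (a η.1 : ℂ) * η.1 c := fun c => by
    have h1 := congrFun (classFun_eq_sum (isClassFunction_of_isCharacter hC)) c
    rw [h1, Finset.sum_apply]
    refine Finset.sum_congr rfl fun η _ => ?_
    rw [Pi.smul_apply, smul_eq_mul, ha, mult_cast hC (irr_isCharacter η)]
  have hexp' : ∀ (μ : U.P →* ℂˣ) (c : U.C), χ c =
      ∑ η : IrrCharacter U.C, (a (η.1 * U.lin μ) : ℂ) * (η.1 * U.lin μ) c := fun μ c => by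
    rw [hexp c]
    let e : IrrCharacter U.C → IrrCharacter U.C := fun η => ⟨η.1 * U.lin μ, irr_fam η.2 μ⟩
    have he : Function.Injective e := fun η η' h => Subtype.ext (funext fun c =>
      mul_right_cancel₀ (b := U.lin μ c) (by simp [lin]) (congrFun (congrArg Subtype.val h) c))
    exact (Fintype.sum_bijective e (Finite.injective_iff_bijective.1 he) _ _ fun η => rfl).symm
  have main : ∀ x (hx : x ∈ U.P), x ≠ 1 → (Fintype.card (U.P →* ℂˣ) : ℂ) * χ x =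
      ∑ η : IrrCharacter U.C, ∑ μ : U.P →* ℂˣ,
        ((a (η.1 * U.lin μ) : ℂ) - k η) * (η.1 * U.lin μ) 1 := fun x hx hx1 => by
    have h1 : (Fintype.card (U.P →* ℂˣ) : ℂ) * χ x = ∑ μ : U.P →* ℂˣ,
        ∑ η : IrrCharacter U.C, (a (η.1 * U.lin μ) : ℂ) * (η.1 * U.lin μ) ⟨x, U.hPC hx⟩ := by
      rw [Finset.sum_congr rfl fun μ _ => (hexp' μ ⟨x, U.hPC hx⟩).symm]
      simp
    rw [h1, Finset.sum_comm]
    refine Finset.sum_congr rfl fun η _ => ?_
    have h2 : ∑ μ : U.P →* ℂˣ, (k η : ℂ) * (η.1 * U.lin μ) ⟨x, U.hPC hx⟩ = 0 := by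
      simp only [Pi.mul_apply, ← Finset.mul_sum, sum_lin (tau_ne hx hx1), mul_zero]
    rw [← sub_zero (∑ μ : U.P →* ℂˣ, _), ← h2, ← Finset.sum_sub_distrib]
    refine Finset.sum_congr rfl fun μ _ => ?_
    rw [← sub_mul]
    by_cases g : U.Good (η.1 * U.lin μ)
    · rw [hk η μ g, sub_self, zero_mul, zero_mul]
    · congr 1
      by_contra h
      exact g ⟨irr_fam η.2 μ, _, hx, h⟩
  exact mul_left_cancel₀ (Nat.cast_ne_zero.2 Fintype.card_ne_zero)
    ((main x hx hx1).trans (main y hy hy1).symm)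

end Cfsg.Agent.H11.SgX
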