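import Cfsg.Agent.H77.SgDefs2
import Cfsg.Agent.H51.SgKit
import Cfsg.Agent.H22.SgBlock

/-!
Overgroups of the norm-one torus of `GL_7(8)`: every pair of points is conjugate to a pair
`(z, s z)`.
-/

set_option autoImplicit false

namespace Cfsg.Agent.H11.SgN

open Module Cfsg.Agent.H77.Sg Finset
open scoped Classical

universe u v

variable {F : Type u} {K : Type v} [Field F] [Field K] [Algebra F K]
  {X : Subgroup (K ≃ₗ[F] K)}

/-- Invariant relations between distinct points. -/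
structure Gd (X : Subgroup (K ≃ₗ[F] K)) (Γ : K → K → Prop) : Prop where
  inv : ∀ g ∈ X, ∀ x y, Γ x y → Γ (g x) (g y)
  sc : ∀ (x y : K) (d : F), d ≠ 0 → Γ x y → Γ x (d • y)
  ind : ∀ x y, Γ x y → y ∉ F ∙ x

theorem Gd.inv_iff {Γ : K → K → Prop} (h : Gd X Γ) {g : K ≃ₗ[F] K} (hg : g ∈ X) (x y : K) :
    Γ (g x) (g y) ↔ Γ x y :=
  ⟨fun k => by simpa using h.inv g⁻¹ (inv_mem hg) _ _ k, h.inv g hg x y⟩

theorem Gd.sc_iff {Γ : K → K → Prop} (h : Gd X Γ) {d : F} (hd : d ≠ 0) (x y : K) :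
    Γ x (d • y) ↔ Γ x y :=
  ⟨fun k => by simpa [hd] using h.sc _ _ d⁻¹ (inv_ne_zero hd) k, h.sc x y d hd⟩

theorem Gd.ne {Γ : K → K → Prop} (h : Gd X Γ) {x y : K} (k : Γ x y) : y ≠ 0 := fun e =>
  h.ind x y k (e ▸ zero_mem _)

theorem val_eq {Γ : K → K → Prop} (h : Gd X Γ) (tr : Tr X) {x x' : K} (hx : x ≠ 0)
    (hx' : x' ≠ 0) : {y | Γ x y}.ncard = {y | Γ x' y}.ncard := by
  obtain ⟨g, hg, rfl⟩ := tr x x' hx hx'
  rw [← Set.ncard_image_of_injective {y | Γ x y} g.injective]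
  congr 1
  ext y
  constructor
  · rintro ⟨z, hz, rfl⟩
    exact h.inv g hg _ _ hz
  · intro hy
    refine ⟨g.symm y, (h.inv_iff hg _ _).1 ?_, by simp⟩
    simpa using hy

variable [Finite F] [Finite K]

omit [Finite F] [Finite K] in
theorem scX (c : C0 7 8 42799 7 X) {d : F} (hd : d ≠ 0) : ∃ g ∈ X, ∀ x, g x = d • x := by
  refine ⟨mulH F K (Units.mk0 (d • (1 : K)) (smul_ne_zero hd one_ne_zero)),
    (c.mem _).2 ⟨d, 1, one_pow _, rfl⟩, fun x => ?_⟩
  simp

omit [Finite K] in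
theorem pw7 (c : C0 7 8 42799 7 X) {d : F} (hd : d ≠ 0) : d ^ 7 = 1 := by
  have := H22.SgBlock.pow_sub_one hd
  rwa [c.hq] at this

theorem mulX (c : C0 7 8 42799 7 X) {w : K} (hw : w ^ (7 * 42799) = 1) :
    ∃ g ∈ X, ∀ x, g x = w * x := by
  have w0 : w ≠ 0 := fun e => by simp [e] at hw
  obtain ⟨d, -, hd⟩ := H22.SgBlock.scalar_of (F := F) (K := K) (u := w ^ 42799)
    (by rw [c.hq, c.card]; norm_num) (by rw [c.hq, ← pow_mul, mul_comm]; exact hw)
  refine ⟨mulH F K (Units.mk0 w w0), (c.mem _).2 ⟨d, (Units.mk0 w w0 ^ 7) ^ 36685,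
    Units.ext ?_, ?_⟩, fun x => rfl⟩
  · rw [← pow_mul, ← pow_mul, Units.val_pow_eq_pow_val, Units.val_mk0,
      show 7 * (36685 * 42799) = 7 * 42799 * 36685 from rfl, pow_mul, hw, one_pow,
      Units.val_one]
  · rw [← pow_mul, Units.val_pow_eq_pow_val, Units.val_mk0, ← smul_one_mul, ← hd, ← pow_add,
      show 42799 + 7 * 36685 = 7 * 42799 + 1 from rfl, pow_succ, hw, one_mul]

theorem nsc (c : C0 7 8 42799 7 X) {s : Kˣ} (hs : s ^ 42799 = 1) (h1 : s ≠ 1) {z : K}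
    (hz : z ≠ 0) : (s : K) * z ∉ F ∙ z := fun h => by
  obtain ⟨d, e⟩ := Submodule.mem_span_singleton.1 h
  refine (H51.SgKit.kit F K (c.hn ▸ c.pn)).ns s 42799 (c.hq ▸ c.cop) hs h1
    (Submodule.mem_span_singleton.2 ⟨d, mul_right_cancel₀ hz ?_⟩)
  rw [smul_one_mul, e]

/-- The basic estimate. -/
theorem est (c : C0 7 8 42799 7 X) (n : Cn0 8 42799 7 X) {Γ : K → K → Prop} (h : Gd X Γ)
    {x : K} (hx : x ≠ 0) {s : Kˣ} (hs : s ^ 42799 = 1) (h1 : s ≠ 1) :
    ∃ β, {z | z ≠ 0 ∧ Γ z (s * z)}.ncard = 7 * (β * 42799) ∧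
      7 * (38966 * β) ≤ {y | Γ x y}.ncard := by
  obtain ⟨k, hk⟩ : 7 ∣ {y | Γ x y}.ncard := by
    refine H22.SgBlock.dvd_ncard (fun a b : K => ∃ d : F, d ≠ 0 ∧ b = d • a) _ 7
      (fun a _ => ⟨1, one_ne_zero, (one_smul _ _).symm⟩) ?_ ?_ ?_ fun a ha => ?_
    · rintro a _ ⟨d, hd, rfl⟩
      exact ⟨d⁻¹, inv_ne_zero hd, by simp [hd]⟩
    · rintro a _ _ ⟨d, hd, rfl⟩ ⟨e, he, rfl⟩
      exact ⟨e * d, mul_ne_zero he hd, (mul_smul _ _ _).symm⟩
    · rintro a ha _ ⟨d, hd, rfl⟩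
      exact h.sc _ _ d hd ha
    · rw [H22.SgBlock.ncard_orb (h.ne ha), c.hq]
  obtain ⟨β, hβ⟩ : 7 * 42799 ∣ {z | z ≠ 0 ∧ Γ z (s * z)}.ncard := by
    refine H22.SgBlock.dvd_ncard (fun a b : K => ∃ w : K, w ^ (7 * 42799) = 1 ∧ b = w * a) _ _
      (fun a _ => ⟨1, one_pow _, (one_mul _).symm⟩) ?_ ?_ ?_ fun a ha => ?_
    · rintro a _ ⟨w, hw, rfl⟩
      have w0 : w ≠ 0 := fun e => by simp [e] at hw
      exact ⟨w⁻¹, by rw [inv_pow, hw, inv_one], by simp [w0]⟩
    · rintro a _ _ ⟨d, hd, rfl⟩ ⟨e, he, rfl⟩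
      exact ⟨e * d, by rw [mul_pow, hd, he, one_mul], (mul_assoc _ _ _).symm⟩
    · rintro a ha _ ⟨w, hw, rfl⟩
      have w0 : w ≠ 0 := fun e => by simp [e] at hw
      obtain ⟨g, hg, e⟩ := mulX c hw
      have := h.inv g hg _ _ ha.2
      rw [e, e, mul_left_comm] at this
      exact ⟨mul_ne_zero w0 ha.1, this⟩
    · refine Eq.trans ?_ ((Set.ncard_image_of_injective {w : K | w ^ (7 * 42799) = 1}
        (mul_left_injective₀ ha.1)).trans (H22.SgBlock.ncard_mu (K := K) (d := 7 * 42799)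
          (by norm_num) (by rw [c.card]; norm_num)))
      congr 1
      ext b
      simp only [Set.mem_ofPred_eq, Set.mem_image, eq_comm]
  have hβ' : {z | z ≠ 0 ∧ Γ z (s * z)}.ncard = (8 - 1) * (β * 42799) := by rw [hβ]; ring
  have i := n.ineqP Γ h.inv h.sc h.ind k β
    (fun x' hx' => (val_eq h n.tr hx' hx).trans hk) s hs h1 hβ'
  refine ⟨β, hβ', ?_⟩
  rw [hk]
  refine Nat.mul_le_mul_left _ (not_lt.1 fun hlt => ?_)
  have h2 : (k : ℤ) < 38966 * β := by exact_mod_cast hlt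
  have h3 : (1 : ℤ) ≤ β := by omega
  push_cast at i
  nlinarith

/-- The weighted form of the basic estimate. -/
theorem estw [Fintype K] (c : C0 7 8 42799 7 X) (n : Cn0 8 42799 7 X) (w : K → K → ℕ)
    (hi : ∀ g ∈ X, ∀ x y, w (g x) (g y) = w x y)
    (hc : ∀ (x y : K) (d : F), d ≠ 0 → w x (d • y) = w x y)
    {x : K} (hx : x ≠ 0) {s : Kˣ} (hs : s ^ 42799 = 1) (h1 : s ≠ 1) :
    38966 * ∑ z ∈ univ.filter (· ≠ (0 : K)), w z (s * z) ≤ 42799 * ∑ y, w x y := by
  obtain ⟨N, hN⟩ : ∃ N, ∀ a b, w a b ≤ N := ⟨univ.sup fun p : K × K => w p.1 p.2, fun a b =>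
    le_sup (f := fun p : K × K => w p.1 p.2) (mem_univ (a, b))⟩
  have e : ∀ a b, w a b = ∑ j ∈ range N, if j < w a b then 1 else 0 := fun a b => by
    rw [← card_filter]
    have : (range N).filter (· < w a b) = range (w a b) := by
      ext j
      have := hN a b
      simp only [mem_filter, mem_range]
      omega
    rw [this, card_range]
  rw [sum_congr rfl fun z _ => e z (s * z), sum_congr rfl fun y _ => e x y, sum_comm,
    sum_comm (s := univ), mul_sum, mul_sum]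
  refine sum_le_sum fun j _ => ?_
  rw [← card_filter, ← card_filter]
  have gd : Gd X fun a b => b ∉ F ∙ a ∧ j < w a b := by
    refine ⟨fun g hg a b k => ⟨fun m => k.1 ?_, by rw [hi g hg]; exact k.2⟩,
      fun a b d hd k => ⟨fun m => k.1 ?_, by rw [hc _ _ d hd]; exact k.2⟩, fun a b k => k.1⟩
    · obtain ⟨d, e⟩ := Submodule.mem_span_singleton.1 m
      exact Submodule.mem_span_singleton.2 ⟨d, g.injective (by rw [map_smul, e])⟩
    · exact (Submodule.smul_mem_iff _ hd).1 m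
  obtain ⟨β, b1, b2⟩ := est c n gd hx hs h1
  have e1 : ((univ.filter (· ≠ (0 : K))).filter fun z => j < w z (s * z)).card =
      7 * (β * 42799) := by
    rw [← b1, ← Set.ncard_coe_finset]
    congr 1
    ext z
    simp only [coe_filter, mem_filter, mem_univ, true_and, Set.mem_ofPred_eq]
    exact ⟨fun k => ⟨k.1, nsc c hs h1 k.1, k.2⟩, fun k => ⟨k.1, k.2.2⟩⟩
  have e2 : {y | y ∉ F ∙ x ∧ j < w x y}.ncard ≤ (univ.filter fun y => j < w x y).card := by
    rw [← Set.ncard_coe_finset]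
    exact Set.ncard_le_ncard fun y k => by simpa using k.2
  rw [e1]
  omega

/-- The neighbours of a point lie in at most forty-two orbits of the torus. -/
theorem cs [Fintype K] (c : C0 7 8 42799 7 X) {Γ : K → K → Prop} (h : Gd X Γ)
    (h0 : ∀ z : K, z ≠ 0 → ∀ s : Kˣ, s ^ 42799 = 1 → s ≠ 1 → ¬ Γ z (s * z))
    {x : K} (hx : x ≠ 0) : (univ.filter (Γ x)).card ^ 2 ≤ 42 * ∑ z ∈ univ.filter (Γ x),
      ((univ.filter fun s : K => s ^ 42799 = 1).filter fun s => Γ x (s * z)).card := by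
  have := Fintype.ofFinite F
  set N := univ.filter (Γ x) with hN
  set φ : K → K := fun z => z ^ 42799 with hφ
  set f : K → ℕ := fun ω => (N.filter fun z => φ z = ω).card with hf
  have h1 : N.card = ∑ ω ∈ N.image φ, f ω := card_eq_sum_card_image φ N
  have h2 : ∑ ω ∈ N.image φ, f ω ^ 2 = ∑ z ∈ N, f (φ z) := by
    rw [sum_comp f φ]
    exact sum_congr rfl fun ω _ => by rw [smul_eq_mul, sq]
  have h3 : ∀ z ∈ N, f (φ z) ≤
      ((univ.filter fun s : K => s ^ 42799 = 1).filter fun s => Γ x (s * z)).card :=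
    fun z hz => by
      have z0 : z ≠ 0 := h.ne (mem_filter.1 hz).2
      refine card_le_card_of_injOn (fun y => y / z) (fun y hy => ?_) fun y _ y' _ e => ?_
      · obtain ⟨k1, k2⟩ := mem_filter.1 (mem_coe.1 hy)
        simp only [coe_filter, mem_filter, mem_univ, true_and, Set.mem_ofPred_eq]
        refine ⟨?_, by rw [div_mul_cancel₀ _ z0]; exact (mem_filter.1 k1).2⟩
        rw [div_pow, show y ^ 42799 = z ^ 42799 from k2, div_self (pow_ne_zero _ z0)]
      · exact (div_left_inj' z0).1 e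
  have pw : ∀ z : K, z ≠ 0 → φ z ^ 49 = 1 := fun z hz => by
    have := H22.SgBlock.pow_sub_one hz
    rw [c.card] at this
    rw [hφ, ← pow_mul]
    exact this
  have sm : ∀ d : F, d ≠ 0 → φ (d • x) = d • φ x := fun d hd => by
    simp only [hφ, smul_pow]
    rw [show 42799 = 7 * 6114 + 1 from rfl, pow_succ d, pow_mul d, pw7 c hd, one_pow, one_mul]
  have h4 : (N.image φ).card ≤ 42 := by
    set S := (univ.erase (0 : F)).image fun d : F => d • φ x with hS
    have cS : S.card = 7 := by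
      rw [card_image_of_injective _ (smul_left_injective F (pow_ne_zero _ hx)),
        card_erase_of_mem (mem_univ _), card_univ, ← Nat.card_eq_fintype_card, c.hq]
    have cM : (univ.filter fun w : K => w ^ 49 = 1).card = 49 := by
      refine Eq.trans ?_ (H22.SgBlock.ncard_mu (K := K) (d := 49) (by norm_num)
        (by rw [c.card]; norm_num))
      rw [← Set.ncard_coe_finset]
      congr 1
      ext w
      simp
    have sub : S ⊆ univ.filter fun w : K => w ^ 49 = 1 := fun w hw => by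
      obtain ⟨d, hd, rfl⟩ := mem_image.1 hw
      rw [← sm d (ne_of_mem_erase hd)]
      exact mem_filter.2 ⟨mem_univ _, pw _ (smul_ne_zero (ne_of_mem_erase hd) hx)⟩
    have sub2 : N.image φ ⊆ (univ.filter fun w : K => w ^ 49 = 1) \ S := fun w hw => by
      obtain ⟨z, hz, rfl⟩ := mem_image.1 hw
      have hz' : Γ x z := (mem_filter.1 hz).2
      have z0 : z ≠ 0 := h.ne hz'
      refine mem_sdiff.2 ⟨mem_filter.2 ⟨mem_univ _, pw z z0⟩, fun k => ?_⟩
      obtain ⟨d, hd, e⟩ := mem_image.1 k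
      have d0 := ne_of_mem_erase hd
      have dx : d • x ≠ 0 := smul_ne_zero d0 hx
      rw [← sm d d0] at e
      have e2 : z = d • (z / (d • x) * x) := by
        rw [← mul_smul_comm, div_mul_cancel₀ _ dx]
      have k2 : Γ x (z / (d • x) * x) := (h.sc_iff d0 _ _).1 (e2 ▸ hz')
      by_cases k3 : z / (d • x) = 1
      · rw [k3, one_mul] at k2
        exact h.ind _ _ k2 (Submodule.mem_span_singleton_self x)
      · refine h0 x hx (Units.mk0 _ (div_ne_zero z0 dx)) (Units.ext ?_)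
          (fun k => k3 (congrArg Units.val k)) k2
        rw [Units.val_pow_eq_pow_val, Units.val_mk0, div_pow,
          show (d • x) ^ 42799 = z ^ 42799 from e, div_self (pow_ne_zero _ z0), Units.val_one]
    have := card_le_card sub2
    rw [card_sdiff_of_subset sub, cS, cM] at this
    exact this
  calc N.card ^ 2 = (∑ ω ∈ N.image φ, f ω) ^ 2 := by rw [h1]
    _ ≤ (N.image φ).card * ∑ ω ∈ N.image φ, f ω ^ 2 := sq_sum_le_card_mul_sum_sq
    _ ≤ _ := by rw [h2]; exact Nat.mul_le_mul h4 (sum_le_sum h3)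

/-- A relation missing all pairs `(z, s z)` has small valency. -/
theorem small (c : C0 7 8 42799 7 X) (n : Cn0 8 42799 7 X) {Γ : K → K → Prop} (h : Gd X Γ)
    (h0 : ∀ z : K, z ≠ 0 → ∀ s : Kˣ, s ^ 42799 = 1 → s ≠ 1 → ¬ Γ z (s * z))
    {x₀ : K} (hx₀ : x₀ ≠ 0) : {y | Γ x₀ y}.ncard ≤ 717 := by
  have := Fintype.ofFinite K
  set v := {y | Γ x₀ y}.ncard with hv
  set V := univ.filter (· ≠ (0 : K)) with hV
  set P := univ.filter fun s : K => s ^ 42799 = 1 with hP
  have cV : V.card = 49 * 42799 := by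
    rw [hV, filter_ne' univ (0 : K), card_erase_of_mem (mem_univ _), card_univ,
      ← Nat.card_eq_fintype_card, c.card]
  have cP : P.card = 42799 := by
    refine Eq.trans ?_ (H22.SgBlock.ncard_mu (K := K) (d := 42799) (by norm_num)
      (by rw [c.card]; norm_num))
    rw [← Set.ncard_coe_finset]
    congr 1
    ext w
    simp [hP]
  have cN : ∀ x ∈ V, (univ.filter (Γ x)).card = v := fun x hx => by
    rw [hv, val_eq h n.tr hx₀ (mem_filter.1 hx).2, ← Set.ncard_coe_finset]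
    congr 1
    ext y
    simp
  set Λ : K → K → ℕ := fun y y' => (V.filter fun x => Γ x y ∧ Γ x y').card with hΛ
  have eΛ : ∀ y y', Λ y y' = ∑ x ∈ V, (if Γ x y then 1 else 0) * if Γ x y' then 1 else 0 :=
    fun y y' => by
      rw [hΛ]
      simp only [card_filter]
      refine sum_congr rfl fun x _ => ?_
      by_cases a : Γ x y <;> by_cases b : Γ x y' <;> simp [a, b]
  set W : K → ℕ := fun s => ∑ z ∈ V, Λ z (s * z) with hW
  have i1 : ∀ s ∈ P.erase 1, 38966 * W s ≤ 42799 * v ^ 2 := fun s hs => by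
    have s1 := ne_of_mem_erase hs
    have s2 : s ^ 42799 = 1 := (mem_filter.1 (mem_of_mem_erase hs)).2
    have s0 : s ≠ 0 := fun e => by simp [e] at s2
    have k : ∀ y ∈ V, 38966 * W s ≤ 42799 * ∑ y', Λ y y' := fun y hy =>
      estw c n Λ (fun g hg a b => (card_equiv g.toEquiv fun x => by
          simp only [hV, mem_filter, mem_univ, true_and, LinearEquiv.coe_toEquiv, h.inv_iff hg,
            ne_eq, EmbeddingLike.map_eq_zero_iff]).symm)
        (fun a b d hd => by simp only [hΛ, h.sc_iff hd]) (mem_filter.1 hy).2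
        (s := Units.mk0 s s0) (Units.ext (by simpa using s2))
        fun e => s1 (congrArg Units.val e)
    have k2 : ∑ y, ∑ y', Λ y y' = V.card * v ^ 2 := by
      simp only [eΛ]
      rw [sum_congr rfl fun y _ => sum_comm, sum_comm, ← smul_eq_mul, ← sum_const]
      refine sum_congr rfl fun x hx => ?_
      rw [← sum_mul_sum, ← card_filter, cN x hx, sq]
    have k3 := sum_le_sum k
    rw [sum_const, ← mul_sum, smul_eq_mul] at k3
    have k4 : ∑ y ∈ V, ∑ y', Λ y y' ≤ ∑ y, ∑ y', Λ y y' :=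
      sum_le_sum_of_subset (subset_univ _)
    rw [k2] at k4
    refine Nat.le_of_mul_le_mul_left ?_ (show 0 < V.card by rw [cV]; norm_num)
    calc _ ≤ _ := k3
      _ ≤ 42799 * (V.card * v ^ 2) := Nat.mul_le_mul_left _ k4
      _ = _ := by ring
  have i2 : W 1 ≤ V.card * v := by
    calc W 1 ≤ ∑ z, Λ z (1 * z) := sum_le_sum_of_subset (subset_univ _)
      _ = ∑ x ∈ V, v := by
        simp only [eΛ, one_mul]
        rw [sum_comm]
        refine sum_congr rfl fun x hx => ?_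
        rw [← cN x hx, card_filter]
        refine sum_congr rfl fun z _ => ?_
        split_ifs <;> rfl
      _ = _ := by rw [sum_const, smul_eq_mul]
  have i3 : V.card * v ^ 2 ≤ 42 * ∑ s ∈ P, W s := by
    have k : ∑ s ∈ P, W s = ∑ x ∈ V, ∑ z ∈ univ.filter (Γ x),
        (P.filter fun s => Γ x (s * z)).card := by
      simp only [hW, eΛ]
      rw [sum_congr rfl fun s _ => sum_comm, sum_comm]
      refine sum_congr rfl fun x _ => ?_
      rw [sum_comm, sum_filter, sum_filter]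
      refine sum_congr rfl fun z _ => ?_
      rw [← mul_sum, ← card_filter]
      by_cases a : Γ x z
      · simp [a, h.ne a]
      · simp [a]
    rw [k, mul_sum, ← smul_eq_mul, ← sum_const]
    refine sum_le_sum fun x hx => ?_
    rw [← cN x hx]
    exact cs c h h0 (mem_filter.1 hx).2
  have p1 : (1 : K) ∈ P := mem_filter.2 ⟨mem_univ _, one_pow _⟩
  rw [← add_sum_erase _ _ p1] at i3
  have i4 := sum_le_sum i1
  rw [← mul_sum, sum_const, card_erase_of_mem p1, cP, smul_eq_mul] at i4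
  rw [cV] at i2 i3
  by_contra hlt
  have h5 : 718 ≤ v := by omega
  have h6 : 718 * v ≤ v ^ 2 := by rw [sq]; exact Nat.mul_le_mul_right _ h5
  omega

/-- The orbit of a pair of points. -/
def O (X : Subgroup (K ≃ₗ[F] K)) (x y x' y' : K) : Prop :=
  ∃ g ∈ X, ∃ d : F, d ≠ 0 ∧ g x = x' ∧ d • g y = y'

omit [Finite F] [Finite K] in
theorem gdO {x y : K} (h : y ∉ F ∙ x) : Gd X (O X x y) := by
  refine ⟨?_, ?_, ?_⟩
  · rintro g hg _ _ ⟨k, hk, d, hd, rfl, rfl⟩
    exact ⟨g * k, mul_mem hg hk, d, hd, rfl, by rw [map_smul]; rfl⟩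
  · rintro _ _ e he ⟨k, hk, d, hd, rfl, rfl⟩
    exact ⟨k, hk, e * d, mul_ne_zero he hd, rfl, mul_smul _ _ _⟩
  · rintro _ _ ⟨k, hk, d, hd, rfl, rfl⟩ m
    obtain ⟨e, he⟩ := Submodule.mem_span_singleton.1 ((Submodule.smul_mem_iff _ hd).1 m)
    exact h (Submodule.mem_span_singleton.2 ⟨e, k.injective (by rw [map_smul, he])⟩)

theorem comp (c : C0 7 8 42799 7 X) (tr : Tr X) {x y z : K} (hy : y ≠ 0)
    (h1 : y ∉ F ∙ x) (h2 : z ∉ F ∙ y) :
    {z' | O X x z x z'}.ncard * 7 ≤ {y' | O X x y x y'}.ncard * {z' | O X y z y z'}.ncard := by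
  have := Fintype.ofFinite K
  have cf : ∀ p : K → Prop, {a | p a}.ncard = (univ.filter p).card := fun p => by
    rw [← Set.ncard_coe_finset]
    congr 1
    ext a
    simp
  rw [cf, cf (O X x y x)]
  refine card_mul_le_card_mul (fun z' y' => O X y z y' z') (fun z' hz' => ?_) fun y' hy' => ?_
  · obtain ⟨g, hg, d, hd, e1, rfl⟩ := (mem_filter.1 hz').2
    have := H22.SgBlock.ncard_orb (F := F) (x := g y) (by simpa using hy)
    rw [c.hq, cf] at this
    refine this.ge.trans (card_le_card fun b hb => ?_)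
    obtain ⟨e, he, rfl⟩ := (mem_filter.1 hb).2
    obtain ⟨k, hk, ek⟩ := scX c he
    refine (mem_bipartiteAbove _).2 ⟨mem_filter.2 ⟨mem_univ _, g, hg, e, he, e1, rfl⟩,
      k * g, mul_mem hk hg, d * e⁻¹, mul_ne_zero hd (inv_ne_zero he), ek _, ?_⟩
    rw [LinearEquiv.mul_apply, ek, smul_smul, inv_mul_cancel_right₀ he]
  · have y0 : y' ≠ 0 := (gdO h1).ne (mem_filter.1 hy').2
    rw [val_eq (gdO h2) tr hy y0, cf]
    exact card_le_card fun b hb => mem_filter.2 ⟨mem_univ _, ((mem_bipartiteBelow _).1 hb).2⟩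

theorem nu8 (block : Block0.{u, v}) : NuP8.{u, v} := by
  intro F K _ _ _ _ _ X c ⟨g₀, hg₀, ng₀⟩ n x y hx hy
  by_contra hcon
  refine ng₀ (block F K 7 8 42799 7 X c n.tr (fun a b => a ≠ 0 ∧ b ≠ 0 ∧ (b ∈ F ∙ a ∨
    ∀ z : K, z ≠ 0 → ∀ s : Kˣ, s ^ 42799 = 1 → s ≠ 1 → ¬ O X a b z (s * z)))
    (fun a b k => ⟨k.1, k.2.1⟩) ?_ ?_ ?_ ?_ ?_ ⟨x, y, ⟨hx, fun e => hy (e ▸ zero_mem _),
      Or.inr fun z hz s hs s1 ⟨g, hg, d, hd, e1, e2⟩ =>
        hcon ⟨s, hs, s1, z, d, hz, hd, g, hg, e1, e2⟩⟩, hy⟩ g₀ hg₀)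
  · rintro a b ⟨a0, b0, k | k⟩
    · obtain ⟨d, rfl⟩ := Submodule.mem_span_singleton.1 k
      exact ⟨b0, a0, Or.inl (Submodule.mem_span_singleton.2
        ⟨d⁻¹, by rw [smul_smul, inv_mul_cancel₀ (left_ne_zero_of_smul b0), one_smul]⟩)⟩
    · refine ⟨b0, a0, Or.inr fun z hz s hs s1 ⟨g, hg, d, hd, e1, e2⟩ => ?_⟩
      refine k (g a) (by simpa using a0) s⁻¹ (by rw [inv_pow, hs, inv_one]) (inv_ne_one.2 s1)
        ⟨g, hg, d⁻¹, inv_ne_zero hd, rfl, ?_⟩
      rw [e1, inv_smul_eq_iff₀ hd, ← mul_smul_comm, e2, Units.inv_mul_cancel_left]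
  · rintro a b e ⟨a0, b0, k1⟩ ⟨-, e0, k2⟩
    refine ⟨a0, e0, or_iff_not_imp_left.2 fun ne z hz s hs s1 ho => ?_⟩
    by_cases m1 : b ∈ F ∙ a
    · obtain ⟨d, rfl⟩ := Submodule.mem_span_singleton.1 m1
      have d0 := left_ne_zero_of_smul b0
      rcases k2 with k2 | k2
      · obtain ⟨d', rfl⟩ := Submodule.mem_span_singleton.1 k2
        exact ne (Submodule.smul_mem _ _ m1)
      · obtain ⟨g, hg, d', hd', e1, e2⟩ := ho
        obtain ⟨k, hk, ek⟩ := scX c (inv_ne_zero d0)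
        refine k2 z hz s hs s1 ⟨k * g, mul_mem hk hg, d' * d, mul_ne_zero hd' d0, ?_, ?_⟩
        · rw [LinearEquiv.mul_apply, ek, map_smul, smul_smul, inv_mul_cancel₀ d0, one_smul, e1]
        · rw [LinearEquiv.mul_apply, ek, smul_smul, mul_inv_cancel_right₀ d0, e2]
    have k1 := k1.resolve_left m1
    by_cases m2 : e ∈ F ∙ b
    · obtain ⟨d, rfl⟩ := Submodule.mem_span_singleton.1 m2
      obtain ⟨g, hg, d', hd', e1, e2⟩ := ho
      exact k1 z hz s hs s1 ⟨g, hg, d' * d, mul_ne_zero hd' (left_ne_zero_of_smul e0), e1,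
        by rw [← e2, map_smul, smul_smul]⟩
    have k2 := k2.resolve_left m2
    have v1 := small c n (gdO m1) k1 a0
    have v2 := small c n (gdO m2) k2 b0
    have v3 := (comp c n.tr b0 m1 m2).trans (Nat.mul_le_mul v1 v2)
    obtain ⟨β, b1, b2⟩ := est c n (gdO ne) a0 hs s1
    have b3 : 0 < {z | z ≠ 0 ∧ O X a e z (s * z)}.ncard :=
      (Set.ncard_pos (Set.toFinite _)).2 ⟨z, hz, ho⟩
    omega
  · rintro g hg a b ⟨a0, b0, k⟩
    refine ⟨by simpa using a0, by simpa using b0, k.imp (fun m => ?_)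
      fun k z hz s hs s1 ⟨g', hg', d, hd, e1, e2⟩ =>
        k z hz s hs s1 ⟨g' * g, mul_mem hg' hg, d, hd, e1, e2⟩⟩
    obtain ⟨d, rfl⟩ := Submodule.mem_span_singleton.1 m
    exact Submodule.mem_span_singleton.2 ⟨d, (map_smul _ _ _).symm⟩
  · exact fun a d a0 d0 => ⟨a0, smul_ne_zero d0 a0,
      Or.inl (Submodule.mem_span_singleton.2 ⟨d, rfl⟩)⟩
  · rintro a s hs ⟨a0, -, k⟩
    by_contra s1
    rcases k with k | k
    · exact nsc c hs s1 a0 k
    · exact k a a0 s hs s1 ⟨1, one_mem _, 1, one_ne_zero, rfl, one_smul _ _⟩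

end Cfsg.Agent.H11.SgN
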