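import Cfsg.Agent.H6.TBDefs

/-! Project TB: the basic facts in the case `h = q = 4`. -/

set_option autoImplicit false

namespace Cfsg.Agent.H11.TB

open Cfsg Subgroup Cfsg.Agent.H6.TB
open Cfsg.Agent.H83 (cj)
open scoped Cfsg.Agent.H63 commutatorElement

universe u

variable {G : Type u} [Group G]

theorem all_of_card_four {α : Type*} (h : Nat.card α = 4) {a b c d : α} (ab : a ≠ b) (ac : a ≠ c)
    (ad : a ≠ d) (bc : b ≠ c) (bd : b ≠ d) (cd : c ≠ d) (z : α) :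
    z = a ∨ z = b ∨ z = c ∨ z = d := by
  classical
  have : Finite α := Nat.finite_of_card_ne_zero (by omega)
  have := Fintype.ofFinite α
  have h1 : ({a, b, c, d} : Finset α).card = 4 := by
    rw [Finset.card_insert_of_notMem (by simp [ab, ac, ad]),
      Finset.card_insert_of_notMem (by simp [bc, bd]), Finset.card_pair cd]
  have h2 : ({a, b, c, d} : Finset α) = Finset.univ :=
    Finset.eq_univ_of_card _ (by rw [h1, ← Nat.card_eq_fintype_card, h])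
  have h3 : z ∈ ({a, b, c, d} : Finset α) := by rw [h2]; exact Finset.mem_univ z
  simpa using h3

/-- the four cosets -/
theorem cos4 {K B : Subgroup G} (h : K.relIndex B = 4) {x y z : G} (hx : x ∈ B) (hy : y ∈ B)
    (hz : z ∈ B) (h1 : x ∉ K) (h2 : y ∉ K) (h3 : x * y ∉ K) (h4 : x⁻¹ * y ∉ K)
    (h5 : y⁻¹ * (x * y) ∉ K) : z ∈ K ∨ x⁻¹ * z ∈ K ∨ y⁻¹ * z ∈ K ∨ (x * y)⁻¹ * z ∈ K := by
  have e : ∀ {a b : G} (ha : a ∈ B) (hb : b ∈ B),
      ((⟨a, ha⟩ : B) : B ⧸ K.subgroupOf B) = (⟨b, hb⟩ : B) ↔ a⁻¹ * b ∈ K := fun ha hb =>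
    QuotientGroup.eq
  have := all_of_card_four (α := B ⧸ K.subgroupOf B) h (a := (⟨1, B.one_mem⟩ : B))
    (b := (⟨x, hx⟩ : B)) (c := (⟨y, hy⟩ : B)) (d := (⟨x * y, B.mul_mem hx hy⟩ : B))
    (fun c => h1 (by simpa using (e _ _).1 c)) (fun c => h2 (by simpa using (e _ _).1 c))
    (fun c => h3 (by simpa using (e _ _).1 c)) (fun c => h4 ((e _ _).1 c))
    (fun c => h2 (by simpa using (e _ _).1 c)) (fun c => h5 ((e _ _).1 c)) (⟨z, hz⟩ : B)
  rcases this with c | c | c | c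
  · exact Or.inl (by simpa using (e _ _).1 c.symm)
  · exact Or.inr (Or.inl ((e _ _).1 c.symm))
  · exact Or.inr (Or.inr (Or.inl ((e _ _).1 c.symm)))
  · exact Or.inr (Or.inr (Or.inr ((e _ _).1 c.symm)))

/-- the four elements -/
theorem four {H : Subgroup G} (h : Nat.card H = 4) {a b z : G} (ha : a ∈ H) (hb : b ∈ H)
    (hz : z ∈ H) (a1 : a ≠ 1) (b1 : b ≠ 1) (ab : a ≠ b) (a2 : a * a = 1) :
    z = 1 ∨ z = a ∨ z = b ∨ z = a * b := by
  have := all_of_card_four h (a := (⟨1, H.one_mem⟩ : H)) (b := ⟨a, ha⟩) (c := ⟨b, hb⟩)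
    (d := ⟨a * b, H.mul_mem ha hb⟩) (fun c => a1 (congrArg Subtype.val c).symm)
    (fun c => b1 (congrArg Subtype.val c).symm)
    (fun c => ab (mul_left_cancel (a := a) (a2.trans (congrArg Subtype.val c))))
    (fun c => ab (congrArg Subtype.val c))
    (fun c => b1 (left_eq_mul.1 (congrArg Subtype.val c)))
    (fun c => a1 (right_eq_mul.1 (congrArg Subtype.val c))) ⟨z, hz⟩
  simpa only [Subtype.mk.injEq] using this

/-- a fixed point free element is transitive on the three involutions -/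
theorem orb {H : Subgroup G} (h : Nat.card H = 4) (hs : ∀ a ∈ H, a * a = 1) {τ : G}
    (hτ : τ ∈ N[H]) (hf : Fpf τ H) {j a : G} (hj : j ∈ H) (j1 : j ≠ 1) (ha : a ∈ H)
    (a1 : a ≠ 1) : ∃ n : ℕ, a = τ ^ n * j * (τ ^ n)⁻¹ := by
  have nf : ∀ v ∈ H, v ≠ 1 → τ * v * τ⁻¹ ≠ v := fun v hv v1 c =>
    v1 (hf v hv (mul_inv_eq_iff_eq_mul.1 c))
  have hm : ∀ v ∈ H, τ * v * τ⁻¹ ∈ H := fun v hv => H83.conj_mem le_rfl hτ hv
  have n1 : ∀ v : G, v ≠ 1 → τ * v * τ⁻¹ ≠ 1 := fun v v1 c => v1 (conj_eq_one_iff.1 c)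
  have hcomm : ∀ u ∈ H, ∀ v ∈ H, u * v = v * u := fun u hu v hv => by
    have e1 := inv_eq_of_mul_eq_one_right (hs _ (H.mul_mem hu hv))
    rw [mul_inv_rev, inv_eq_of_mul_eq_one_right (hs u hu),
      inv_eq_of_mul_eq_one_right (hs v hv)] at e1
    exact e1.symm
  set j' := τ * j * τ⁻¹ with hj'
  have m1 := hm j hj
  have k := fun z (hz : z ∈ H) => four h hj m1 hz j1 (n1 j j1) (nf j hj j1).symm (hs j hj)
  rcases k a ha with c | c | c | c
  · exact absurd c a1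
  · exact ⟨0, by simp [c]⟩
  · exact ⟨1, by simp [c]⟩
  · refine ⟨2, ?_⟩
    have e : τ ^ 2 * j * (τ ^ 2)⁻¹ = τ * j' * τ⁻¹ := by rw [hj', pow_two]; group
    rw [e, c]
    rcases k _ (hm _ m1) with d | d | d | d
    · exact absurd d (n1 _ (n1 j j1))
    · exfalso
      refine nf (j * j') (H.mul_mem hj m1) (c ▸ a1) ?_
      calc τ * (j * j') * τ⁻¹ = (τ * j * τ⁻¹) * (τ * j' * τ⁻¹) := by group
        _ = j' * j := by rw [d]
        _ = j * j' := hcomm _ m1 _ hj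
    · exact absurd d (nf _ m1 (n1 j j1))
    · exact d.symm

variable {Ω : Set (Subgroup G)} {B B' P : Subgroup G}

theorem om_le_vv (P Q : Subgroup G) : om P ≤ vv P Q := le_sup_left

theorem om_le_vv' (P Q : Subgroup G) : om Q ≤ vv P Q := le_sup_right

theorem exists_not_om (h : C0 Ω) (hB : B ∈ Ω) : ∃ x ∈ B, x ∉ om B := by
  obtain ⟨x, hx, h1⟩ := h.nel B hB
  exact ⟨x, hx, fun c => h1 ((h.la.mem_om B hB x).1 c).2⟩

theorem om_sq (h : C0 Ω) (hB : B ∈ Ω) {a : G} (ha : a ∈ om B) : a * a = 1 :=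
  ((h.la.mem_om B hB a).1 ha).2

theorem om_inv (h : C0 Ω) (hB : B ∈ Ω) {a : G} (ha : a ∈ om B) : a⁻¹ = a :=
  inv_eq_of_mul_eq_one_right (om_sq h hB ha)

theorem not_om (h : C0 Ω) (e : Ad Ω B B') {a : G} (ha : a ∈ om B') (a1 : a ≠ 1) : a ∉ om B :=
  fun c => e.ne (h.la.eq B e.l B' e.r a (om_le _ c) (om_le _ ha) a1)

theorem conj_not_om {t x : G} (ht : t ∈ N[B]) (hx : x ∉ om B) : t * x * t⁻¹ ∉ om B :=
  fun c => hx ((mem_normalizer_iff.1 (norm_om ht) x).2 c)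

theorem iv_ne_one (h : C0 Ω) (hB : B ∈ Ω) {a x : G} (hx : x ∈ B) (hx' : x ∉ om B) (i : Iv a x) :
    a ≠ 1 := by
  rintro rfl
  apply hx'
  rw [h.la.mem_om B hB]
  refine ⟨hx, ?_⟩
  have : x = x⁻¹ := by simpa [Iv] using i
  exact mul_eq_one_iff_eq_inv.2 this

theorem tri (h : CX Ω) (e : Nc Ω B B') (f : Ad Ω P B) (f' : Ad Ω P B') :
    ∃ x ∈ B, P = cj x B' := by
  have h0 := h.toC0
  obtain ⟨x, hx, hx'⟩ := exists_not_om h0 e.l
  have hb : om P ≠ ⊥ := fun c => by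
    have := (h.c4 P f.l).1
    rw [c, card_bot] at this
    omega
  obtain ⟨p, hp, p1⟩ := (bot_or_exists_ne_one _).resolve_left hb
  have g := h.la.symm f
  have g' := h.la.symm f'
  obtain ⟨a, ⟨ha, ea⟩, -⟩ := h.le.phi e x hx hx' _ (h.le.brk g x hx p (om_le_vv' _ _ hp))
  have pi := om_inv h0 f.l hp
  have ai := om_inv h0 e.r ha
  have hd : x * (a * p) = a * p * x := by
    rw [← h.le.adc f' p hp a ha]
    have e1 : a * x⁻¹ * a⁻¹ = p * x⁻¹ * p⁻¹ := by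
      have := ea
      rw [commutatorElement_def, commutatorElement_def] at this
      calc a * x⁻¹ * a⁻¹ = x⁻¹ * (x * a * x⁻¹ * a⁻¹) := by group
        _ = _ := by rw [this]; group
    calc x * (p * a) = x * (p⁻¹ * (a * x⁻¹ * a⁻¹) * a * x) := by rw [pi]; group
      _ = x * (p⁻¹ * (p * x⁻¹ * p⁻¹) * a * x) := by rw [e1]
      _ = p⁻¹ * a * x := by group
      _ = p * a * x := by rw [pi]
  have hdv : a * p ∈ vv B' P := mul_mem (om_le_vv _ _ ha) (om_le_vv' _ _ hp)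
  have hdn : a * p ∉ om B' := fun c => not_om h0 g' hp p1 (by
    simpa using mul_mem (inv_mem ha) c)
  have d1 : a * p ≠ 1 := fun c => hdn (c ▸ one_mem _)
  obtain ⟨y, hy, hdy⟩ := h.lb.part (h.nc _ _ g') (by rw [(h.c4 _ e.r).1, (h.c4 _ e.r).2]) _ hdv hdn
  rw [← om_cj] at hdy
  have hR := h.conj P f.l y
  have hxN := h.la.cent _ hR _ (om_le _ hdy) d1 x hd
  have hRB : B = cj y P := by
    refine (ad_of e.l hR hx (fun c => hx' (c ▸ one_mem _)) hxN).resolve_right fun c => hx' ?_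
    rw [← h.le.ax (h.nc _ _ c)]
    exact ⟨hx, hxN⟩
  rw [← hRB] at hdy
  have hpv : p ∈ vv B B' := by
    have := mul_mem (inv_mem (om_le_vv' B B' ha)) (om_le_vv B B' hdy)
    simpa using this
  obtain ⟨x', hx1, hx2⟩ := h.lb.part e (by rw [(h.c4 _ e.l).1, (h.c4 _ e.l).2]) p hpv
    (not_om h0 g hp p1)
  rw [← om_cj] at hx2
  exact ⟨x', hx1, h.la.eq _ f.l _ (h.conj _ e.r x') p (om_le _ hp) (om_le _ hx2) p1⟩

theorem iv (h : CX Ω) (e : Nc Ω B B') {a : G} (ha : a ∈ om B') (a1 : a ≠ 1) :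
    ∃ x ∈ B, x ∉ om B ∧ Iv a x := by
  have h0 := h.toC0
  obtain ⟨x, hx, hx'⟩ := exists_not_om h0 e.l
  obtain ⟨τ, -, t1, t2, -, tf⟩ := h.lb.tor e (h.c4 _ e.l).2.ge
  obtain ⟨j, ⟨hj, ij⟩, -⟩ := h.le.ivE e x hx hx'
  obtain ⟨n, rfl⟩ := orb (h.c4 _ e.r).1 (fun _ => om_sq h0 e.r) (norm_om t2)
    (fun v hv => tf v (om_le_vv' _ _ hv)) hj (iv_ne_one h0 e.l hx hx' ij) ha a1
  exact ⟨_, H83.conj_mem le_rfl (pow_mem t1 n) hx, conj_not_om (pow_mem t1 n) hx', ij.cj _⟩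

theorem iv_mul {a x y : G} (hx : Iv a x) (hy : Iv a y) (c : x * y = y * x) : Iv a (x * y) := by
  rw [Iv] at hx hy ⊢
  calc a * (x * y) * a⁻¹ = (a * x * a⁻¹) * (a * y * a⁻¹) := by group
    _ = (y * x)⁻¹ := by rw [hx, hy, mul_inv_rev]
    _ = _ := by rw [c]

theorem iv_om (h : C0 Ω) (e : Ad Ω B B') {a i : G} (ha : a ∈ om B') (hi : i ∈ om B) : Iv a i := by
  rw [Iv, ← h.le.adc e i hi a ha, mul_inv_cancel_right, om_inv h e.l hi]

theorem one (h : CX Ω) (e : Nc Ω B B') {a : G} (ha : a ∈ om B') {x y : G} (hx : x ∈ B)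
    (hx' : x ∉ om B) (hy : y ∈ B) (hy' : y ∉ om B) (ix : Iv a x) (iy : Iv a y) :
    x * y ∈ om B := by
  have h0 := h.toC0
  by_contra hxy
  have cm := h.comm B e.l
  have all : ∀ z ∈ B, Iv a z := by
    intro z hz
    have k : ∀ w ∈ B, Iv a w → w⁻¹ * z ∈ om B → Iv a z := fun w hw iw c => by
      have := iv_mul iw (iv_om h0 e.toAd ha c) (cm _ hw _ (om_le _ c))
      rwa [mul_inv_cancel_left] at this
    rcases cos4 (K := om B) (h.c4 B e.l).2 hx hy hz hx' hy' hxy (fun c => hxy (by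
        have := mul_mem (h.le.sq e x hx) c
        rwa [mul_assoc, mul_inv_cancel_left] at this)) (fun c => hx' (by
        rwa [cm x hx y hy, inv_mul_cancel_left] at c)) with c | c | c | c
    · exact iv_om h0 e.toAd ha c
    · exact k x hx ix c
    · exact k y hy iy c
    · exact k _ (mul_mem hx hy) (iv_mul ix iy (cm x hx y hy)) c
  obtain ⟨τ, -, t1, t2, -, tf⟩ := h.lb.tor e (h.c4 _ e.l).2.ge
  have i2 : Iv (τ * a * τ⁻¹) x := by
    have := (all _ (H83.conj_mem' le_rfl t1 hx)).cj τ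
    have e1 : τ * (τ⁻¹ * x * τ) * τ⁻¹ = x := by group
    rwa [e1] at this
  have e2 := (h.le.ivE e x hx hx').unique ⟨H83.conj_mem le_rfl (norm_om t2) ha, i2⟩ ⟨ha, ix⟩
  exact iv_ne_one h0 e.l hx hx' ix (tf a (om_le_vv' _ _ ha) (mul_inv_eq_iff_eq_mul.1 e2))

theorem brk_eq (h : CX Ω) (e : Nc Ω B B') {a : G} (ha : a ∈ om B') {x y : G} (hx : x ∈ B)
    (hx' : x ∉ om B) (hy : y ∈ B) (hy' : y ∉ om B) (ix : Iv a x) (hxy : x * y ∉ om B) :
    ⁅y, a⁆ = x * x * (y * y) := by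
  have h0 := h.toC0
  have cm := h.comm B e.l
  have a1 := iv_ne_one h0 e.l hx hx' ix
  have av := om_le_vv' B B' ha
  have an := not_om h0 e.toAd ha a1
  have sq : ∀ z ∈ B, z ∉ om B → z * z ≠ 1 := fun z hz hz' c =>
    hz' ((h.la.mem_om B e.l z).2 ⟨hz, c⟩)
  have hxx := h.le.sq e x hx
  have hyy := h.le.sq e y hy
  have ne : x * x ≠ y * y := fun c => sq _ (mul_mem hx hy) hxy (by
    calc x * y * (x * y) = x * (y * x) * y := by group
      _ = x * x * (y * y) := by rw [cm y hy x hx]; group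
      _ = 1 := by rw [← c]; exact om_sq h0 e.l hxx)
  have ex : ⁅x, a⁆ = x * x := by
    have : a * x⁻¹ * a⁻¹ = x := by
      have := congrArg Inv.inv ix
      rw [inv_inv] at this
      exact Eq.trans (by group) this
    rw [commutatorElement_def, mul_assoc, mul_assoc, ← mul_assoc a, this]
  rcases four (h.c4 B e.l).1 hxx hyy (h.le.brk e.toAd y hy a av) (sq x hx hx') (sq y hy hy') ne
    (om_sq h0 e.l hxx) with c | c | c | c
  · exact absurd (h.le.cA e y hy a av an (commutatorElement_eq_one_iff_mul_comm.1 c)) hy'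
  · refine absurd (h.le.cA e _ (mul_mem hx hy) a av an
      (commutatorElement_eq_one_iff_mul_comm.1 ?_)) hxy
    rw [h.le.mul2 e.toAd x hx y hy a av, ex, c]
    exact om_sq h0 e.l hxx
  · refine absurd (one h e ha hx hx' hy hy' ix ?_) hxy
    rw [commutatorElement_def] at c
    have e1 : a * y⁻¹ * a⁻¹ = y := by
      calc a * y⁻¹ * a⁻¹ = y⁻¹ * (y * a * y⁻¹ * a⁻¹) := by group
        _ = y := by rw [c]; group
    rw [Iv]
    calc a * y * a⁻¹ = (a * y⁻¹ * a⁻¹)⁻¹ := by group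
      _ = y⁻¹ := by rw [e1]
  · exact c

theorem same (h : CX Ω) {B₁ B₂ : Subgroup G} (e₁ : Nc Ω B B₁) (e₂ : Nc Ω B B₂) {a₁ a₂ x : G}
    (h₁ : a₁ ∈ om B₁) (h₂ : a₂ ∈ om B₂) (hx : x ∈ B) (hx' : x ∉ om B) (i₁ : Iv a₁ x)
    (i₂ : Iv a₂ x) : a₁ * a₂ ∈ C[B] := by
  have h0 := h.toC0
  have k0 : ∀ i ∈ om B, Commute i (a₁ * a₂) := fun i hi =>
    Commute.mul_right (h.le.adc e₁.toAd i hi a₁ h₁) (h.le.adc e₂.toAd i hi a₂ h₂)
  have k1 : ∀ y : G, a₁ * y * a₁⁻¹ = a₂ * y * a₂⁻¹ → Commute y (a₁ * a₂) := fun y c => by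
    show y * (a₁ * a₂) = a₁ * a₂ * y
    calc y * (a₁ * a₂) = a₁⁻¹ * (a₁ * y * a₁⁻¹) * (a₁ * a₁) * a₂ := by group
      _ = a₁ * (a₂ * y * a₂⁻¹) * a₂ := by rw [c, om_sq h0 e₁.r h₁, om_inv h0 e₁.r h₁, mul_one]
      _ = _ := by group
  have kx : Commute x (a₁ * a₂) := k1 x (i₁.trans i₂.symm)
  intro y hy
  by_cases hy' : y ∈ om B
  · exact k0 y hy'
  by_cases hxy : x * y ∈ om B
  · have := kx.inv_left.mul_left (k0 _ hxy)
    rwa [inv_mul_cancel_left] at this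
  have c := (brk_eq h e₁ h₁ hx hx' hy hy' i₁ hxy).trans (brk_eq h e₂ h₂ hx hx' hy hy' i₂ hxy).symm
  rw [commutatorElement_def, commutatorElement_def] at c
  have := (k1 y⁻¹ (by
    calc a₁ * y⁻¹ * a₁⁻¹ = y⁻¹ * (y * a₁ * y⁻¹ * a₁⁻¹) := by group
      _ = _ := by rw [c]; group)).inv_left
  rwa [inv_inv] at this

theorem smem (h : C0 Ω) (e : Ad Ω B B') (y : G) :
    y ∈ B ⊔ om B' ↔ ∃ x ∈ B, ∃ a ∈ om B', y = x * a := by
  rw [H83.mem_sup_left_norm ((om_le_vv' B B').trans (h.le.vle e))]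
  exact ⟨fun ⟨x, hx, a, ha, c⟩ => ⟨x, hx, a, ha, c.symm⟩,
    fun ⟨x, hx, a, ha, c⟩ => ⟨x, hx, a, ha, c.symm⟩⟩

theorem sC (h : C0 Ω) (e : Nc Ω B B') : (B ⊔ om B') ⊓ C[B] = B := by
  have cB : B ≤ C[B] := fun x hx y hy => h.comm B e.l y hy x hx
  refine le_antisymm ?_ (le_inf le_sup_left cB)
  rintro y ⟨hy, hc⟩
  obtain ⟨x, hx, a, ha, rfl⟩ := (smem h e.toAd y).1 hy
  have hac : a ∈ C[B] := by simpa using mul_mem (inv_mem (cB hx)) hc
  by_cases a1 : a = 1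
  · rw [a1, mul_one]; exact hx
  obtain ⟨z, hz, hz'⟩ := exists_not_om h e.l
  exact absurd (h.le.cA e z hz a (om_le_vv' _ _ ha) (not_om h e.toAd ha a1) (hac z hz)) hz'

theorem fus (h : CX Ω) (e : Nc Ω B B') {a v : G} (ha : a ∈ om B) (a1 : a ≠ 1) (hv : v ∈ vv B B')
    (v1 : v ≠ 1) : ∃ g ∈ B ⊔ B', g * a * g⁻¹ = v := by
  have h0 := h.toC0
  obtain ⟨τ, t0, t1, -, -, tf⟩ := h.lb.tor e (h.c4 _ e.l).2.ge
  have k : ∀ i ∈ om B, i ≠ 1 → ∃ g ∈ B ⊔ B', g * a * g⁻¹ = i := fun i hi i1 => by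
    obtain ⟨n, c⟩ := orb (h.c4 _ e.l).1 (fun _ => om_sq h0 e.l) (norm_om t1)
      (fun v hv => tf v (om_le_vv _ _ hv)) ha a1 hi i1
    exact ⟨_, pow_mem t0 n, c.symm⟩
  by_cases hv' : v ∈ om B
  · exact k v hv' v1
  obtain ⟨x, hx, hx2⟩ := h.lb.part e (by rw [(h.c4 _ e.l).1, (h.c4 _ e.l).2]) v hv hv'
  obtain ⟨x0, hx0, hx0'⟩ := exists_not_om h0 e.l
  obtain ⟨y0, hy0, hy0'⟩ := exists_not_om h0 e.r
  obtain ⟨s, R, -, -, -, hs, e1, -⟩ := h.le.swap e x0 hx0 hx0' y0 hy0 hy0'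
  have hs' : s ∈ B ⊔ B' := by
    refine (closure_le _).2 ?_ hs
    rintro _ (rfl | rfl)
    · exact mem_sup_left hx0
    · exact mem_sup_right hy0
  rw [← e1, om_cj, ← H83.cj_mul, H83.mem_cj] at hx2
  obtain ⟨g, hg, c⟩ := k _ hx2 (fun c => v1 (by
    calc v = (x * s) * ((x * s)⁻¹ * v * (x * s)) * (x * s)⁻¹ := by group
      _ = 1 := by rw [c]; group))
  refine ⟨x * s * g, mul_mem (mul_mem (mem_sup_left hx) hs') hg, ?_⟩
  calc x * s * g * a * (x * s * g)⁻¹ = (x * s) * (g * a * g⁻¹) * (x * s)⁻¹ := by group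
    _ = v := by rw [c]; group

theorem xa : XAStmt.{u} := fun _ h =>
  { tri := fun e f f' => tri h e f f'
    iv := fun e _ ha a1 => iv h e ha a1
    one := fun e _ ha _ hx hx' _ hy hy' ix iy => one h e ha hx hx' hy hy' ix iy
    same := fun e₁ e₂ _ h₁ _ h₂ _ hx hx' i₁ i₂ => same h e₁ e₂ h₁ h₂ hx hx' i₁ i₂
    smem := fun e y => smem h.toC0 e.toAd y
    sC := fun e => sC h.toC0 e
    fus := fun e _ ha a1 _ hv v1 => fus h e ha a1 hv v1 }

end Cfsg.Agent.H11.TB
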